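import Mathlib
import Cfsg.Agent.Lib.Helper56.TC

set_option autoImplicit false
set_option maxRecDepth 1000000

namespace Cfsg.Agent.Lib.Helper56.ME7U3

open Cfsg.Agent.Lib.Helper56.TC Cfsg.Agent.Lib.Helper56.TC.Tabs

noncomputable def nA0 : List ℕ := [
0x67212b836a0207a044f2d1430408084d05b07408081063d9684810002092292c87432040c010e483231a00]

noncomputable def fA0 : List ℕ := [
0x1247b306d4936a2d26a822404e400000]

end Cfsg.Agent.Lib.Helper56.ME7U3
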