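import Mathlib
import Cfsg.Agent.Lib.Helper56.TC
import Cfsg.Agent.Lib.Helper56.TCFast
import Cfsg.Agent.Lib.Helper56.ME7U3.DA0
set_option autoImplicit false
set_option maxRecDepth 1000000

namespace Cfsg.Agent.Lib.Helper56.ME7U3

open Cfsg.Agent.Lib.Helper56.TC Cfsg.Agent.Lib.Helper56.TC.Tabs

noncomputable def nA : List (List ℕ) := [nA0]

noncomputable def fA : List (List ℕ) := [fA0]

/-- The certificate data. -/
noncomputable def T : Tabs where
  K := 4
  N := 5
  N' := 5
  INF := 13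
  fuel := 1
  inv := fun l => l
  tg := slotFld2 nA 237 69 590295810358705651711 4 14 13 7 (fun _ => 0)
  rk := slotFld2 nA 237 69 590295810358705651711 4 14 16 15
    (fun x => Nat.rec (motive := fun _ => ℕ) 0 (fun _ _ => 13) x)
  jc := slotFld2 nA 237 69 590295810358705651711 4 14 20 127
    (fun x => Nat.rec (motive := fun _ => ℕ) 3 (fun _ _ => 0) x)
  dd := fldA nA 237 69 590295810358705651711 0 7
  dl := fldA nA 237 69 590295810358705651711 3 3
  qj := fldA nA 237 69 590295810358705651711 5 1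
  mp := fldA nA 237 69 590295810358705651711 6 7
  mt := fldA nA 237 69 590295810358705651711 9 15
  tb := tbFld2 fA 655 25 33554431 3 13 7
  rels1 := [[0, 1, 0, 1, 0, 1],
    [0, 2, 0, 2],
    [0, 3, 0, 3],
    [1, 2, 1, 2, 1, 2],
    [1, 3, 1, 3],
    [2, 3, 2, 3, 2, 3]]
  subs := [[0],
    [1],
    [2]]
  rx := [[0, 1, 0, 1, 0, 1],
    [0, 2, 0, 2],
    [0, 3, 0, 3],
    [1, 2, 1, 2, 1, 2],
    [1, 3, 1, 3],
    [2, 3, 2, 3, 2, 3],
    [0, 4],
    [1, 5],
    [2, 6]]
  RB := 7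
  tpl := fldA fA 655 25 33554431 0 3
  tdep := fldA fA 655 25 33554431 2 7
  ol := fldA fA 655 25 33554431 5 1
  oc := fldA fA 655 25 33554431 6 3
  op := fldA fA 655 25 33554431 8 7
  odep := fldA fA 655 25 33554431 11 3
  orep := fun c => Tabs.nth 0 [0, 1] c

end Cfsg.Agent.Lib.Helper56.ME7U3
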